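/-
The centraliser of a transvection in SL(5, 2).
-/
import Mathlib

set_option autoImplicit false
set_option linter.unusedVariables false
set_option linter.unusedSectionVars false

namespace CfsgLib.SL5T

abbrev M5 := Matrix (Fin 5) (Fin 5) (ZMod 2)
abbrev SL5 := Matrix.SpecialLinearGroup (Fin 5) (ZMod 2)
abbrev GL3 := Matrix.GeneralLinearGroup (Fin 3) (ZMod 2)

theorem z2_cases (x : ZMod 2) : x = 0 ∨ x = 1 := by
  revert x
  decide

theorem z2_one_of_ne {x : ZMod 2} (h : x ≠ 0) : x = 1 := (z2_cases x).resolve_left h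

/-- The lower right block. -/
def sub3 (m : M5) : Matrix (Fin 3) (Fin 3) (ZMod 2) := fun i j => m i.succ.succ j.succ.succ

theorem det_shape (m : M5) (h0 : ∀ i : Fin 5, i ≠ 0 → m i 0 = 0) (h1 : ∀ j : Fin 5, j ≠ 1 → m 1 j = 0) :
    m.det = m 0 0 * m 1 1 * (sub3 m).det := by
  rw [Matrix.det_succ_column_zero, Fin.sum_univ_succ]
  have e1 : ∀ i : Fin 4, (-1 : ZMod 2) ^ ((i.succ : Fin 5) : ℕ) * m i.succ 0 * (m.submatrix i.succ.succAbove Fin.succ).det = 0 := by
    intro i
    rw [h0 _ (Fin.succ_ne_zero i)]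
    ring
  rw [Finset.sum_eq_zero (fun i _ => e1 i), add_zero, Fin.succAbove_zero, Fin.val_zero, pow_zero, one_mul]
  rw [Matrix.det_succ_row_zero (m.submatrix Fin.succ Fin.succ), Fin.sum_univ_succ]
  have e2 : ∀ j : Fin 3, (-1 : ZMod 2) ^ ((j.succ : Fin 4) : ℕ) * (m.submatrix Fin.succ Fin.succ) 0 j.succ *
      ((m.submatrix Fin.succ Fin.succ).submatrix Fin.succ j.succ.succAbove).det = 0 := by
    intro j
    have : (m.submatrix Fin.succ Fin.succ) 0 j.succ = 0 := h1 _ (by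
      show j.succ.succ ≠ 1
      intro h
      have := congrArg Fin.val h
      simp at this)
    rw [this]
    ring
  rw [Finset.sum_eq_zero (fun j _ => e2 j), add_zero, Fin.succAbove_zero, Fin.val_zero, pow_zero, one_mul]
  have e3 : (m.submatrix Fin.succ Fin.succ) 0 0 = m 1 1 := rfl
  have e4 : ((m.submatrix Fin.succ Fin.succ).submatrix Fin.succ Fin.succ) = sub3 m := rfl
  rw [e3, e4]
  ring

/-- The matrix with given blocks. -/
def mk5 (x : ZMod 2) (u v : Fin 3 → ZMod 2) (B : Matrix (Fin 3) (Fin 3) (ZMod 2)) : M5 :=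
  !![1, x, u 0, u 1, u 2;
     0, 1, 0, 0, 0;
     0, v 0, B 0 0, B 0 1, B 0 2;
     0, v 1, B 1 0, B 1 1, B 1 2;
     0, v 2, B 2 0, B 2 1, B 2 2]

theorem mk5_col0 (x : ZMod 2) (u v : Fin 3 → ZMod 2) (B : Matrix (Fin 3) (Fin 3) (ZMod 2)) (i : Fin 5) (hi : i ≠ 0) :
    mk5 x u v B i 0 = 0 := by
  fin_cases i
  · exact absurd rfl hi
  all_goals rfl

theorem mk5_row1 (x : ZMod 2) (u v : Fin 3 → ZMod 2) (B : Matrix (Fin 3) (Fin 3) (ZMod 2)) (j : Fin 5) (hj : j ≠ 1) :
    mk5 x u v B 1 j = 0 := by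
  fin_cases j
  · rfl
  · exact absurd rfl hj
  all_goals rfl

theorem sub3_mk5 (x : ZMod 2) (u v : Fin 3 → ZMod 2) (B : Matrix (Fin 3) (Fin 3) (ZMod 2)) : sub3 (mk5 x u v B) = B := by
  ext i j
  fin_cases i <;> fin_cases j <;> rfl

theorem det_mk5 (x : ZMod 2) (u v : Fin 3 → ZMod 2) (B : Matrix (Fin 3) (Fin 3) (ZMod 2)) : (mk5 x u v B).det = B.det := by
  rw [det_shape _ (mk5_col0 x u v B) (mk5_row1 x u v B), sub3_mk5]
  have e1 : mk5 x u v B 0 0 = 1 := rfl
  have e2 : mk5 x u v B 1 1 = 1 := rfl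
  rw [e1, e2]
  ring

/-- A transvection commutes exactly with the matrices of the right shape. -/
theorem comm_iff' (g : M5) (a b : Fin 5) : g * Matrix.transvection a b 1 = Matrix.transvection a b 1 * g ↔
    (∀ i : Fin 5, i ≠ a → g i a = 0) ∧ (∀ j : Fin 5, j ≠ b → g b j = 0) ∧ g a a = g b b := by
  have hE : g * Matrix.transvection a b 1 = Matrix.transvection a b 1 * g ↔
      g * Matrix.single a b (1 : ZMod 2) = Matrix.single a b (1 : ZMod 2) * g := by
    unfold Matrix.transvection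
    rw [mul_add, add_mul, mul_one, one_mul]
    exact add_right_inj g
  rw [hE]
  constructor
  · intro h
    refine ⟨fun i hi => ?_, fun j hj => ?_, ?_⟩
    · have h1 := congrFun (congrFun h i) b
      rw [Matrix.mul_single_apply_same, Matrix.single_mul_apply_of_ne _ _ _ _ _ hi] at h1
      simpa using h1
    · have h1 := congrFun (congrFun h a) j
      rw [Matrix.mul_single_apply_of_ne _ _ _ _ _ hj, Matrix.single_mul_apply_same] at h1
      simpa using h1.symm
    · have h1 := congrFun (congrFun h a) b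
      rw [Matrix.mul_single_apply_same, Matrix.single_mul_apply_same] at h1
      simpa using h1
  · rintro ⟨h0, h1, h2⟩
    ext i j
    by_cases hj : j = b
    · subst hj
      rw [Matrix.mul_single_apply_same]
      by_cases hi : i = a
      · subst hi
        rw [Matrix.single_mul_apply_same, h2]
        simp
      · rw [Matrix.single_mul_apply_of_ne _ _ _ _ _ hi, h0 i hi]
        simp
    · rw [Matrix.mul_single_apply_of_ne _ _ _ _ _ hj]
      by_cases hi : i = a
      · subst hi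
        rw [Matrix.single_mul_apply_same, h1 j hj]
        simp
      · rw [Matrix.single_mul_apply_of_ne _ _ _ _ _ hi]

theorem comm_iff (g : M5) : g * Matrix.transvection 0 1 1 = Matrix.transvection 0 1 1 * g ↔
    (∀ i : Fin 5, i ≠ 0 → g i 0 = 0) ∧ (∀ j : Fin 5, j ≠ 1 → g 1 j = 0) ∧ g 0 0 = g 1 1 := comm_iff' g 0 1

theorem card_gl3 : Nat.card GL3 = 168 := by
  have h := Matrix.card_GL_field (n := 3) (𝔽 := ZMod 2)
  rw [ZMod.card, Fin.prod_univ_three] at h
  rw [h]
  norm_num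

section

variable (s : SL5) (hs : (s : M5) = Matrix.transvection 0 1 1)

include hs

theorem mem_cent_iff (g : SL5) : g ∈ Subgroup.centralizer ({s} : Set SL5) ↔
    (∀ i : Fin 5, i ≠ 0 → (g : M5) i 0 = 0) ∧ (∀ j : Fin 5, j ≠ 1 → (g : M5) 1 j = 0) ∧ (g : M5) 0 0 = (g : M5) 1 1 := by
  rw [Subgroup.mem_centralizer_singleton_iff, ← comm_iff, ← hs]
  constructor
  · intro h
    have := congrArg Subtype.val h
    exact this
  · intro h
    exact Subtype.ext h

/-- The map to the parameters. -/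
noncomputable def toParams (g : ↥(Subgroup.centralizer ({s} : Set SL5))) :
    ZMod 2 × (Fin 3 → ZMod 2) × (Fin 3 → ZMod 2) × Matrix (Fin 3) (Fin 3) (ZMod 2) :=
  ((g.1 : M5) 0 1, ![(g.1 : M5) 0 2, (g.1 : M5) 0 3, (g.1 : M5) 0 4],
    ![(g.1 : M5) 2 1, (g.1 : M5) 3 1, (g.1 : M5) 4 1], sub3 (g.1 : M5))

theorem cent_shape (g : ↥(Subgroup.centralizer ({s} : Set SL5))) :
    (g.1 : M5) 0 0 = 1 ∧ (g.1 : M5) 1 1 = 1 ∧ (sub3 (g.1 : M5)).det = 1 := by
  obtain ⟨h0, h1, h2⟩ := (mem_cent_iff s hs g.1).mp g.2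
  have hd : (g.1 : M5).det = 1 := g.1.2
  rw [det_shape _ h0 h1] at hd
  have h3 : (g.1 : M5) 0 0 ≠ 0 := by
    intro h
    rw [h] at hd
    simp at hd
  have h4 := z2_one_of_ne h3
  rw [← h2, h4] at hd
  refine ⟨h4, by rw [← h2, h4], ?_⟩
  simpa using hd

theorem eq_mk5 (g : ↥(Subgroup.centralizer ({s} : Set SL5))) :
    (g.1 : M5) = mk5 ((g.1 : M5) 0 1) ![(g.1 : M5) 0 2, (g.1 : M5) 0 3, (g.1 : M5) 0 4]
      ![(g.1 : M5) 2 1, (g.1 : M5) 3 1, (g.1 : M5) 4 1] (sub3 (g.1 : M5)) := by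
  obtain ⟨h0, h1, h2⟩ := (mem_cent_iff s hs g.1).mp g.2
  obtain ⟨h3, h4, h5⟩ := cent_shape s hs g
  ext i j
  fin_cases i
  · fin_cases j
    · exact h3
    all_goals rfl
  · fin_cases j
    · exact h1 _ (by decide)
    · exact h4
    · exact h1 _ (by decide)
    · exact h1 _ (by decide)
    · exact h1 _ (by decide)
  · fin_cases j
    · exact h0 _ (by decide)
    all_goals rfl
  · fin_cases j
    · exact h0 _ (by decide)
    all_goals rfl
  · fin_cases j
    · exact h0 _ (by decide)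
    all_goals rfl

theorem card_cent : Nat.card (Subgroup.centralizer ({s} : Set SL5)) = 21504 := by
  have hB : ∀ g : ↥(Subgroup.centralizer ({s} : Set SL5)), (sub3 (g.1 : M5)).det ≠ 0 := by
    intro g
    rw [(cent_shape s hs g).2.2]
    exact one_ne_zero
  let Φ : ↥(Subgroup.centralizer ({s} : Set SL5)) → ZMod 2 × (Fin 3 → ZMod 2) × (Fin 3 → ZMod 2) × GL3 := fun g =>
    ((g.1 : M5) 0 1, ![(g.1 : M5) 0 2, (g.1 : M5) 0 3, (g.1 : M5) 0 4],
      ![(g.1 : M5) 2 1, (g.1 : M5) 3 1, (g.1 : M5) 4 1], Matrix.GeneralLinearGroup.mkOfDetNeZero _ (hB g))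
  have hΦ : Function.Bijective Φ := by
    constructor
    · intro a b hab
      simp only [Φ, Prod.mk.injEq] at hab
      obtain ⟨h1, h2, h3, h4⟩ := hab
      apply Subtype.ext
      apply Subtype.ext
      rw [eq_mk5 s hs a, eq_mk5 s hs b, h1, h2, h3]
      congr 1
      exact congrArg (fun x : GL3 => (x : Matrix (Fin 3) (Fin 3) (ZMod 2))) h4
    · rintro ⟨x, u, v, B⟩
      have hdet : (mk5 x u v (B : Matrix (Fin 3) (Fin 3) (ZMod 2))).det = 1 := by
        rw [det_mk5]
        exact z2_one_of_ne (fun h => by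
          have := (Matrix.isUnit_iff_isUnit_det _).mp B.isUnit
          rw [h] at this
          exact not_isUnit_zero this)
      let g : SL5 := ⟨mk5 x u v (B : Matrix (Fin 3) (Fin 3) (ZMod 2)), hdet⟩
      have hg : g ∈ Subgroup.centralizer ({s} : Set SL5) :=
        (mem_cent_iff s hs g).mpr ⟨mk5_col0 _ _ _ _, mk5_row1 _ _ _ _, rfl⟩
      refine ⟨⟨g, hg⟩, ?_⟩
      simp only [Φ]
      refine Prod.ext rfl (Prod.ext ?_ (Prod.ext ?_ ?_))
      · funext i
        fin_cases i <;> rfl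
      · funext i
        fin_cases i <;> rfl
      · apply Units.ext
        exact sub3_mk5 _ _ _ _
  rw [Nat.card_congr (Equiv.ofBijective Φ hΦ)]
  simp only [Nat.card_prod, card_gl3]
  have h1 : Nat.card (ZMod 2) = 2 := by simp
  have h2 : Nat.card (Fin 3 → ZMod 2) = 8 := by
    rw [Nat.card_eq_fintype_card]
    simp [ZMod.card]
  rw [h1, h2]

end

end CfsgLib.SL5T
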