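/-
A Sylow 2-subgroup of the centraliser of a transvection in SL(5, 2) has centre of order two;
consequently a group with such an involution centraliser has it containing a Sylow 2-subgroup.
-/
import Cfsg.Agent.Lib.SL5T.Basic

set_option autoImplicit false
set_option linter.unusedVariables false
set_option linter.unusedSectionVars false

namespace CfsgLib.SL5T

section General

variable {C : Type*} [Group C] [Finite C]

theorem isPGroup_zpowers_of_pow {x : C} {k : ℕ} (hx : x ^ 2 ^ k = 1) : IsPGroup 2 (Subgroup.zpowers x) := by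
  haveI : Fact (Nat.Prime 2) := ⟨Nat.prime_two⟩
  have h1 : orderOf x ∣ 2 ^ k := orderOf_dvd_of_pow_eq_one hx
  apply IsPGroup.of_card_dvd_pow (n := k)
  rwa [Nat.card_zpowers]

/-- A 2-element normalizing a Sylow 2-subgroup lies in it. -/
theorem mem_of_normalizes (T : Sylow 2 C) {x : C} {k : ℕ} (hx : x ^ 2 ^ k = 1)
    (hn : ∀ t ∈ (T : Subgroup C), x * t * x⁻¹ ∈ (T : Subgroup C)) : x ∈ (T : Subgroup C) := by
  haveI : Fact (Nat.Prime 2) := ⟨Nat.prime_two⟩
  have hle : Subgroup.zpowers x ≤ Subgroup.normalizer ((T : Subgroup C) : Set C) := by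
    rw [Subgroup.zpowers_le]
    rw [Subgroup.mem_normalizer_iff]
    intro t
    constructor
    · exact hn t
    · intro ht
      -- a power of the conjugation is trivial, so the inverse also preserves the subgroup
      have hfin : ∀ n : ℕ, ∀ t ∈ (T : Subgroup C), x ^ n * t * (x ^ n)⁻¹ ∈ (T : Subgroup C) := by
        intro n
        induction n with
        | zero => simp
        | succ n ih =>
          intro t ht
          have h1 := hn _ (ih t ht)
          have e : x ^ (n + 1) * t * (x ^ (n + 1))⁻¹ = x * (x ^ n * t * (x ^ n)⁻¹) * x⁻¹ := by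
            rw [pow_succ']
            group
          rw [e]
          exact h1
      have h2 := hfin (2 ^ k - 1) _ ht
      have e2 : x ^ (2 ^ k - 1) = x⁻¹ := by
        apply eq_inv_of_mul_eq_one_left
        rw [← pow_succ, Nat.sub_add_cancel Nat.one_le_two_pow, hx]
      rw [e2] at h2
      simpa [mul_assoc] using h2
  have hsup := IsPGroup.to_sup_of_normal_left' T.isPGroup' (isPGroup_zpowers_of_pow hx) hle
  have h3 := T.is_maximal' hsup le_sup_left
  have h4 : x ∈ (T : Subgroup C) ⊔ Subgroup.zpowers x := Subgroup.mem_sup_right (Subgroup.mem_zpowers x)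
  rw [show ((T : Subgroup C) ⊔ Subgroup.zpowers x) = T from h3] at h4
  exact h4

end General

theorem odd_index_of_center {G : Type*} [Group G] [Finite G] (z : G) (hz : orderOf z = 2)
    (T : Sylow 2 (Subgroup.centralizer ({z} : Set G)))
    (hZ : ∀ w ∈ (T : Subgroup (Subgroup.centralizer ({z} : Set G))),
      (∀ t ∈ (T : Subgroup (Subgroup.centralizer ({z} : Set G))), w * t = t * w) →
        w = 1 ∨ (w : G) = z) :
    ¬ 2 ∣ ((T : Subgroup (Subgroup.centralizer ({z} : Set G))).map
      (Subgroup.subtype (Subgroup.centralizer ({z} : Set G)))).index := by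
  haveI : Fact (Nat.Prime 2) := ⟨Nat.prime_two⟩
  let C := Subgroup.centralizer ({z} : Set G)
  have hzC : z ∈ C := by
    show z ∈ Subgroup.centralizer ({z} : Set G)
    rw [Subgroup.mem_centralizer_singleton_iff]
  have hz2 : z * z = 1 := by
    have := pow_orderOf_eq_one z
    rwa [hz, pow_two] at this
  have hz1 : z ≠ 1 := by
    intro h
    rw [h, orderOf_one] at hz
    omega
  let zC : C := ⟨z, hzC⟩
  have hcomm : ∀ c : C, zC * c = c * zC := by
    intro c
    apply Subtype.ext
    have := Subgroup.mem_centralizer_singleton_iff.mp c.2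
    exact this.symm
  have hzT : zC ∈ (T : Subgroup C) := by
    apply mem_of_normalizes T (k := 1)
    · apply Subtype.ext
      show z ^ 2 ^ 1 = 1
      rw [pow_one, pow_two, hz2]
    · intro t ht
      rw [hcomm t]
      simpa using ht
  set T' : Subgroup G := (T : Subgroup C).map C.subtype with hT'
  have hT'p : IsPGroup 2 T' := T.isPGroup'.map _
  obtain ⟨n, hn⟩ := IsPGroup.iff_card.mp hT'p
  intro hdvd0
  have hdvd : 2 ∣ T'.index := hdvd0
  have hcardG := Subgroup.card_mul_index T'
  have hd : 2 ^ (n + 1) ∣ Nat.card G := by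
    rw [← hcardG, hn, pow_succ]
    exact Nat.mul_dvd_mul_left _ hdvd
  obtain ⟨K, hKc, hTK⟩ := Sylow.exists_subgroup_card_pow_succ hd hn
  have hKpow : ∀ x ∈ K, x ^ 2 ^ (n + 1) = 1 := by
    intro x hx
    have h1 := pow_card_eq_one' (x := (⟨x, hx⟩ : K))
    rw [hKc] at h1
    have h2 := congrArg Subtype.val h1
    simpa only [Subgroup.coe_pow, Subgroup.coe_one] using h2
  -- an element of K outside T'
  have hex : ∃ x ∈ K, x ∉ T' := by
    by_contra hno
    push Not at hno
    have hle : K ≤ T' := hno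
    have := Subgroup.card_le_of_le hle
    rw [hKc, hn] at this
    have h3 : 2 ^ n < 2 ^ (n + 1) := Nat.pow_lt_pow_right (by norm_num) (by omega)
    omega
  obtain ⟨x, hxK, hxT⟩ := hex
  -- normality in K
  have hnormal : (T'.subgroupOf K).Normal := by
    have h1 := Subgroup.card_mul_index (T'.subgroupOf K)
    have h2 : Nat.card ↥(T'.subgroupOf K) = 2 ^ n := by
      rw [Nat.card_congr (Subgroup.subgroupOfEquivOfLe hTK).toEquiv, hn]
    rw [h2, hKc, pow_succ] at h1
    have h3 : (T'.subgroupOf K).index = 2 := Nat.eq_of_mul_eq_mul_left (by positivity) h1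
    exact Subgroup.normal_of_index_eq_two h3
  have hconj : ∀ t ∈ T', x * t * x⁻¹ ∈ T' := by
    intro t ht
    have h1 : (⟨t, hTK ht⟩ : K) ∈ T'.subgroupOf K := ht
    exact hnormal.conj_mem _ h1 ⟨x, hxK⟩
  have hconj' : ∀ t ∈ T', x⁻¹ * t * x ∈ T' := by
    -- the conjugation is a bijection of a finite set
    intro t ht
    have hfin : ∀ m : ℕ, ∀ t ∈ T', x ^ m * t * (x ^ m)⁻¹ ∈ T' := by
      intro m
      induction m with
      | zero => simp
      | succ m ih =>
        intro t ht
        have h1 := hconj _ (ih t ht)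
        have e : x ^ (m + 1) * t * (x ^ (m + 1))⁻¹ = x * (x ^ m * t * (x ^ m)⁻¹) * x⁻¹ := by
          rw [pow_succ']
          group
        rw [e]
        exact h1
    have h2 := hfin (2 ^ (n + 1) - 1) _ ht
    have e2 : x ^ (2 ^ (n + 1) - 1) = x⁻¹ := by
      apply eq_inv_of_mul_eq_one_left
      rw [← pow_succ, Nat.sub_add_cancel Nat.one_le_two_pow, hKpow x hxK]
    rw [e2] at h2
    simpa [mul_assoc] using h2
  have hzT' : z ∈ T' := Subgroup.mem_map.mpr ⟨zC, hzT, rfl⟩
  have hw : x * z * x⁻¹ ∈ T' := hconj z hzT'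
  obtain ⟨w0, hw0, hw0e⟩ := Subgroup.mem_map.mp hw
  have hw0e' : (w0 : G) = x * z * x⁻¹ := hw0e
  have hcent : ∀ t ∈ (T : Subgroup C), w0 * t = t * w0 := by
    intro t ht
    apply Subtype.ext
    have h1 : (t : G) ∈ T' := Subgroup.mem_map.mpr ⟨t, ht, rfl⟩
    have h2 := hconj' _ h1
    obtain ⟨t2, ht2, ht2e⟩ := Subgroup.mem_map.mp h2
    have ht2e' : (t2 : G) = x⁻¹ * t * x := ht2e
    have h3 : z * (t2 : G) = t2 * z := by
      have := congrArg Subtype.val (hcomm t2)
      exact this
    rw [ht2e'] at h3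
    show (w0 : G) * t = t * (w0 : G)
    rw [hw0e']
    have e1 : x * z * x⁻¹ * (t : G) = x * (z * (x⁻¹ * t * x)) * x⁻¹ := by group
    have e2 : (t : G) * (x * z * x⁻¹) = x * ((x⁻¹ * t * x) * z) * x⁻¹ := by group
    rw [e1, e2, h3]
  rcases hZ w0 hw0 hcent with h1 | h1
  · have : x * z * x⁻¹ = 1 := by
      rw [← hw0e', h1]
      rfl
    apply hz1
    have h2 : z = x⁻¹ * (x * z * x⁻¹) * x := by group
    rw [h2, this]
    group
  · have hxz : x * z * x⁻¹ = z := by rw [← hw0e', h1]
    have hxC : x ∈ C := by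
      show x ∈ Subgroup.centralizer ({z} : Set G)
      rw [Subgroup.mem_centralizer_singleton_iff]
      exact mul_inv_eq_iff_eq_mul.mp hxz
    apply hxT
    have hmem : (⟨x, hxC⟩ : C) ∈ (T : Subgroup C) := by
      apply mem_of_normalizes T (k := n + 1)
      · apply Subtype.ext
        exact hKpow x hxK
      · intro t ht
        have h1 : (t : G) ∈ T' := Subgroup.mem_map.mpr ⟨t, ht, rfl⟩
        have h2 := hconj _ h1
        obtain ⟨t2, ht2, ht2e⟩ := Subgroup.mem_map.mp h2
        have e : (⟨x, hxC⟩ : C) * t * (⟨x, hxC⟩ : C)⁻¹ = t2 := by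
          apply Subtype.ext
          exact ht2e.symm
        rw [e]
        exact ht2
    exact Subgroup.mem_map.mpr ⟨_, hmem, rfl⟩

/-! ### Unitriangular matrices -/

/-- The position in the flag. -/
def rk : Fin 5 → ℕ := ![0, 4, 1, 2, 3]

theorem rk_inj : ∀ i j : Fin 5, rk i = rk j → i = j := by decide

theorem rk_le : ∀ i : Fin 5, rk i ≤ 4 := by decide

/-- Unitriangular with respect to the flag. -/
def Uni (g : M5) : Prop := ∀ i j, rk j ≤ rk i → g i j = if i = j then 1 else 0

theorem uni_one : Uni 1 := by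
  intro i j _
  rw [Matrix.one_apply]

theorem uni_mul {g h : M5} (hg : Uni g) (hh : Uni h) : Uni (g * h) := by
  intro i j hij
  rw [Matrix.mul_apply, Finset.sum_eq_single i]
  · rw [hg i i le_rfl, if_pos rfl, one_mul, hh i j hij]
  · intro k _ hk
    by_cases h1 : rk k ≤ rk i
    · rw [hg i k h1, if_neg (Ne.symm hk), zero_mul]
    · have h2 : rk j ≤ rk k := by omega
      have h3 : k ≠ j := by
        rintro rfl
        exact h1 hij
      rw [hh k j h2, if_neg h3, mul_zero]
  · intro h
    exact absurd (Finset.mem_univ i) h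

theorem uni_nil {g : M5} (hg : Uni g) (n : ℕ) : ∀ i j, rk j < rk i + n → ((g - 1) ^ n) i j = 0 := by
  induction n with
  | zero =>
    intro i j hij
    rw [pow_zero, Matrix.one_apply_ne]
    rintro rfl
    omega
  | succ n ih =>
    intro i j hij
    rw [pow_succ, Matrix.mul_apply]
    apply Finset.sum_eq_zero
    intro l _
    by_cases h1 : rk j < rk i + n
    · by_cases h2 : rk l < rk i + n
      · rw [ih i l h2, zero_mul]
      · have h3 : rk j ≤ rk l := by omega
        have h4 : (g - 1) l j = 0 := by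
          rw [Matrix.sub_apply, hg l j h3, Matrix.one_apply]
          simp
        rw [h4, mul_zero]
    · by_cases h2 : rk l < rk i + n
      · rw [ih i l h2, zero_mul]
      · have h3 : rk j ≤ rk l := by omega
        have h4 : (g - 1) l j = 0 := by
          rw [Matrix.sub_apply, hg l j h3, Matrix.one_apply]
          simp
        rw [h4, mul_zero]

theorem uni_pow8 {g : M5} (hg : Uni g) : g ^ 2 ^ 3 = 1 := by
  have h5 : (g - 1) ^ 5 = 0 := by
    ext i j
    rw [uni_nil hg 5 i j (by have := rk_le j; omega)]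
    rfl
  have h8 : (g - 1) ^ 2 ^ 3 = 0 := by
    have : (2 : ℕ) ^ 3 = 5 + 3 := by norm_num
    rw [this, pow_add, h5, zero_mul]
  haveI : Fact (Nat.Prime 2) := ⟨Nat.prime_two⟩
  have hadd := add_pow_char_pow_of_commute (R := M5) (p := 2) (n := 3) (x := g - 1) (y := 1) (Commute.one_right _)
  rw [h8, one_pow, zero_add, sub_add_cancel] at hadd
  exact hadd

/-! ### The classification of matrices commuting with the simple root elements -/

theorem classify (w : M5) (hdet : w.det = 1)
    (hA : w * Matrix.transvection 0 2 1 = Matrix.transvection 0 2 1 * w)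
    (hB : w * Matrix.transvection 2 3 1 = Matrix.transvection 2 3 1 * w)
    (hC : w * Matrix.transvection 3 4 1 = Matrix.transvection 3 4 1 * w)
    (hD : w * Matrix.transvection 4 1 1 = Matrix.transvection 4 1 1 * w) :
    w = 1 ∨ w = Matrix.transvection 0 1 1 := by
  obtain ⟨a1, a2, a3⟩ := (comm_iff' w 0 2).mp hA
  obtain ⟨b1, b2, b3⟩ := (comm_iff' w 2 3).mp hB
  obtain ⟨c1, c2, c3⟩ := (comm_iff' w 3 4).mp hC
  obtain ⟨d1, d2, d3⟩ := (comm_iff' w 4 1).mp hD
  have hdiag0 : w 0 0 = 1 := by
    rw [det_shape w a1 d2] at hdet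
    apply z2_one_of_ne
    intro h
    rw [h] at hdet
    simp at hdet
  have hdiag : ∀ i : Fin 5, w i i = 1 := by
    have hc : ∀ i : Fin 5, i = 0 ∨ i = 1 ∨ i = 2 ∨ i = 3 ∨ i = 4 := by decide
    intro i
    rcases hc i with rfl | rfl | rfl | rfl | rfl
    · exact hdiag0
    · rw [← d3, ← c3, ← b3, ← a3, hdiag0]
    · rw [← a3, hdiag0]
    · rw [← b3, ← a3, hdiag0]
    · rw [← c3, ← b3, ← a3, hdiag0]
  have key : ∀ i j : Fin 5, i ≠ j → ¬(i = 0 ∧ j = 1) →
      (j = 0 ∧ i ≠ 0) ∨ (j = 2 ∧ i ≠ 2) ∨ (j = 3 ∧ i ≠ 3) ∨ (j = 4 ∧ i ≠ 4) ∨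
        (i = 2 ∧ j ≠ 2) ∨ (i = 3 ∧ j ≠ 3) ∨ (i = 4 ∧ j ≠ 4) ∨ (i = 1 ∧ j ≠ 1) := by decide
  have hoff : ∀ i j : Fin 5, i ≠ j → ¬(i = 0 ∧ j = 1) → w i j = 0 := by
    intro i j h1 h2
    rcases key i j h1 h2 with ⟨rfl, h⟩ | ⟨rfl, h⟩ | ⟨rfl, h⟩ | ⟨rfl, h⟩ | ⟨rfl, h⟩ | ⟨rfl, h⟩ | ⟨rfl, h⟩ | ⟨rfl, h⟩
    · exact a1 _ h
    · exact b1 _ h
    · exact c1 _ h
    · exact d1 _ h
    · exact a2 _ h
    · exact b2 _ h
    · exact c2 _ h
    · exact d2 _ h
  rcases z2_cases (w 0 1) with h01 | h01
  · left
    ext i j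
    by_cases hij : i = j
    · subst hij
      rw [hdiag, Matrix.one_apply_eq]
    · rw [Matrix.one_apply_ne hij]
      by_cases h2 : i = 0 ∧ j = 1
      · rw [h2.1, h2.2, h01]
      · exact hoff i j hij h2
  · right
    ext i j
    unfold Matrix.transvection
    rw [Matrix.add_apply, Matrix.single_apply]
    by_cases hij : i = j
    · subst hij
      rw [hdiag, Matrix.one_apply_eq]
      have : ¬ (0 = i ∧ 1 = i) := by
        rintro ⟨rfl, h⟩
        exact absurd h (by decide)
      rw [if_neg this, add_zero]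
    · rw [Matrix.one_apply_ne hij, zero_add]
      by_cases h2 : i = 0 ∧ j = 1
      · rw [if_pos ⟨h2.1.symm, h2.2.symm⟩, h2.1, h2.2, h01]
      · rw [if_neg (fun h => h2 ⟨h.1.symm, h.2.symm⟩)]
        exact hoff i j hij h2

/-- The simple root elements. -/
def rootEl (a b : Fin 5) (h : a ≠ b) : SL5 := ⟨Matrix.transvection a b 1, Matrix.det_transvection_of_ne a b h 1⟩

theorem rootEl_uni_A : Uni (Matrix.transvection 0 2 1) := by
  intro i j hij
  fin_cases i <;> fin_cases j <;> first | exact absurd hij (by decide) | decide +kernel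

theorem rootEl_uni_B : Uni (Matrix.transvection 2 3 1) := by
  intro i j hij
  fin_cases i <;> fin_cases j <;> first | exact absurd hij (by decide) | decide +kernel

theorem rootEl_uni_C : Uni (Matrix.transvection 3 4 1) := by
  intro i j hij
  fin_cases i <;> fin_cases j <;> first | exact absurd hij (by decide) | decide +kernel

theorem rootEl_uni_D : Uni (Matrix.transvection 4 1 1) := by
  intro i j hij
  fin_cases i <;> fin_cases j <;> first | exact absurd hij (by decide) | decide +kernel

section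

variable (s : SL5) (hs : (s : M5) = Matrix.transvection 0 1 1)

include hs

theorem rootEl_mem (a b : Fin 5) (h : a ≠ b) (h0 : a ≠ 1 ∧ b ≠ 0) : rootEl a b h ∈ Subgroup.centralizer ({s} : Set SL5) := by
  rw [mem_cent_iff s hs]
  show (∀ i : Fin 5, i ≠ 0 → (Matrix.transvection a b 1 : M5) i 0 = 0) ∧
    (∀ j : Fin 5, j ≠ 1 → (Matrix.transvection a b 1 : M5) 1 j = 0) ∧
    (Matrix.transvection a b 1 : M5) 0 0 = (Matrix.transvection a b 1 : M5) 1 1
  unfold Matrix.transvection
  simp only [Matrix.add_apply, Matrix.single_apply]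
  refine ⟨fun i hi => ?_, fun j hj => ?_, ?_⟩
  · rw [Matrix.one_apply_ne hi, if_neg (fun e => h0.2 e.2), add_zero]
  · rw [Matrix.one_apply_ne (Ne.symm hj), if_neg (fun e => h0.1 e.1), add_zero]
  · rw [Matrix.one_apply_eq, Matrix.one_apply_eq, if_neg (fun e => h0.2 e.2), if_neg (fun e => h0.1 e.1)]

/-- The four root elements in the centraliser. -/
def rootsD : Set ↥(Subgroup.centralizer ({s} : Set SL5)) :=
  {⟨rootEl 0 2 (by decide), rootEl_mem s hs 0 2 (by decide) (by decide)⟩,
   ⟨rootEl 2 3 (by decide), rootEl_mem s hs 2 3 (by decide) (by decide)⟩,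
   ⟨rootEl 3 4 (by decide), rootEl_mem s hs 3 4 (by decide) (by decide)⟩,
   ⟨rootEl 4 1 (by decide), rootEl_mem s hs 4 1 (by decide) (by decide)⟩}

theorem closure_uni (g : ↥(Subgroup.centralizer ({s} : Set SL5))) (hg : g ∈ Subgroup.closure (rootsD s hs)) :
    Uni (g.1 : M5) := by
  -- the unitriangular elements of a finite group form a subgroup
  have hinv : ∀ x : ↥(Subgroup.centralizer ({s} : Set SL5)), Uni (x.1 : M5) → Uni ((x⁻¹).1 : M5) := by
    intro x hx
    have h1 : x ^ 2 ^ 3 = 1 := by
      apply Subtype.ext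
      apply Subtype.ext
      exact uni_pow8 hx
    have h2 : x⁻¹ = x ^ (2 ^ 3 - 1) := by
      apply inv_eq_of_mul_eq_one_right
      rw [← pow_succ', Nat.sub_add_cancel (by norm_num), h1]
    rw [h2]
    have hp : ∀ n : ℕ, Uni (((x ^ n).1 : SL5) : M5) := by
      intro n
      induction n with
      | zero => exact uni_one
      | succ n ih =>
        rw [pow_succ]
        exact uni_mul ih hx
    exact hp _
  induction hg using Subgroup.closure_induction with
  | mem x hx =>
    rcases hx with rfl | rfl | rfl | rfl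
    · exact rootEl_uni_A
    · exact rootEl_uni_B
    · exact rootEl_uni_C
    · exact rootEl_uni_D
  | one => exact uni_one
  | mul x y _ _ hx hy => exact uni_mul hx hy
  | inv x _ hx => exact hinv x hx

theorem closure_pgroup : IsPGroup 2 (Subgroup.closure (rootsD s hs)) := by
  rintro ⟨g, hg⟩
  refine ⟨3, ?_⟩
  apply Subtype.ext
  apply Subtype.ext
  apply Subtype.ext
  exact uni_pow8 (closure_uni s hs g hg)

/-- An element of the centraliser commuting with the four root elements is trivial or the transvection. -/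
theorem classify_D (w : ↥(Subgroup.centralizer ({s} : Set SL5)))
    (h : ∀ r ∈ rootsD s hs, w * r = r * w) : w = 1 ∨ (w : SL5) = s := by
  have hval : ∀ (a b : Fin 5) (hab : a ≠ b) (hm : rootEl a b hab ∈ Subgroup.centralizer ({s} : Set SL5)),
      (⟨rootEl a b hab, hm⟩ : ↥(Subgroup.centralizer ({s} : Set SL5))) ∈ rootsD s hs →
      (w.1 : M5) * Matrix.transvection a b 1 = Matrix.transvection a b 1 * (w.1 : M5) := by
    intro a b hab hm hr
    have h1 := h _ hr
    have h2 := congrArg (fun x : ↥(Subgroup.centralizer ({s} : Set SL5)) => ((x.1 : SL5) : M5)) h1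
    exact h2
  have hA := hval 0 2 (by decide) (rootEl_mem s hs 0 2 (by decide) (by decide)) (by simp [rootsD])
  have hB := hval 2 3 (by decide) (rootEl_mem s hs 2 3 (by decide) (by decide)) (by simp [rootsD])
  have hC := hval 3 4 (by decide) (rootEl_mem s hs 3 4 (by decide) (by decide)) (by simp [rootsD])
  have hD := hval 4 1 (by decide) (rootEl_mem s hs 4 1 (by decide) (by decide)) (by simp [rootsD])
  rcases classify _ w.1.2 hA hB hC hD with h1 | h1
  · left
    apply Subtype.ext
    apply Subtype.ext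
    exact h1
  · right
    apply Subtype.ext
    rw [h1, hs]

end

theorem main_1717 {G : Type*} [Group G] [Finite G] (s : SL5) (hs : (s : M5) = Matrix.transvection 0 1 1)
    (z : G) (hz : orderOf z = 2)
    (e : (Subgroup.centralizer ({z} : Set G)) ≃* Subgroup.centralizer ({s} : Set SL5))
    (T : Sylow 2 (Subgroup.centralizer ({z} : Set G))) :
    ¬ 2 ∣ ((T : Subgroup (Subgroup.centralizer ({z} : Set G))).map (Subgroup.subtype (Subgroup.centralizer ({z} : Set G)))).index := by
  haveI : Fact (Nat.Prime 2) := ⟨Nat.prime_two⟩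
  apply odd_index_of_center z hz T
  let C := Subgroup.centralizer ({z} : Set G)
  let D := Subgroup.centralizer ({s} : Set SL5)
  intro w hwT hwc
  have hzC : z ∈ C := by
    show z ∈ Subgroup.centralizer ({z} : Set G)
    rw [Subgroup.mem_centralizer_singleton_iff]
  let zC : C := ⟨z, hzC⟩
  have hcomm : ∀ c : C, zC * c = c * zC := by
    intro c
    apply Subtype.ext
    have := Subgroup.mem_centralizer_singleton_iff.mp c.2
    exact this.symm
  -- the image of z is the transvection
  have hzne : zC ≠ 1 := by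
    intro h
    have h1 : z = 1 := congrArg Subtype.val h
    rw [h1, orderOf_one] at hz
    omega
  have hez : ((e zC : D) : SL5) = s := by
    have h1 := classify_D s hs (e zC) (fun r _ => by
      have h2 := hcomm (e.symm r)
      have h3 := congrArg e h2
      simpa using h3)
    rcases h1 with h1 | h1
    · exfalso
      apply hzne
      apply e.injective
      rw [h1, map_one]
    · exact h1
  -- a conjugate of the image of the root group lies in T
  let U : Subgroup C := (Subgroup.closure (rootsD s hs)).map e.symm.toMonoidHom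
  have hU : IsPGroup 2 U := (closure_pgroup s hs).map _
  obtain ⟨Q, hQ⟩ := hU.exists_le_sylow
  obtain ⟨g, hg⟩ := MulAction.exists_smul_eq C Q T
  -- the conjugate of w commutes with U
  have hcommU : ∀ u ∈ U, (g⁻¹ * w * g) * u = u * (g⁻¹ * w * g) := by
    intro u hu
    have h1 : g * u * g⁻¹ ∈ (T : Subgroup C) := by
      rw [← hg, Sylow.coe_subgroup_smul]
      refine Subgroup.mem_pointwise_smul_iff_inv_smul_mem.mpr ?_
      have e1 : (MulAut.conj g)⁻¹ • (g * u * g⁻¹) = u := by
        rw [MulAut.smul_def, MulAut.conj_inv_apply]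
        group
      rw [e1]
      exact hQ hu
    have h2 := hwc _ h1
    have e1 : g⁻¹ * w * g * u = g⁻¹ * (w * (g * u * g⁻¹)) * g := by group
    have e2 : u * (g⁻¹ * w * g) = g⁻¹ * ((g * u * g⁻¹) * w) * g := by group
    rw [e1, e2, h2]
  have hcl := classify_D s hs (e (g⁻¹ * w * g)) (fun r hr => by
    have h1 : e.symm r ∈ U := ⟨r, Subgroup.subset_closure hr, rfl⟩
    have h2 := hcommU _ h1
    have h3 := congrArg e h2
    simpa using h3)
  rcases hcl with h1 | h1
  · left
    have h2 : g⁻¹ * w * g = 1 := by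
      apply e.injective
      rw [h1, map_one]
    have h3 : w = g * (g⁻¹ * w * g) * g⁻¹ := by group
    rw [h3, h2]
    group
  · right
    have h2 : e (g⁻¹ * w * g) = e zC := Subtype.ext (h1.trans hez.symm)
    have h3 : g⁻¹ * w * g = zC := e.injective h2
    have h4 : w = g * (g⁻¹ * w * g) * g⁻¹ := by group
    have h5 : g * zC * g⁻¹ = zC := by
      rw [← hcomm g, mul_assoc, mul_inv_cancel, mul_one]
    rw [h4, h3, h5]

end CfsgLib.SL5T
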